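-- Team project OELM (S5990, helper58), package [MINUSQE] (helper53):
-- the minus form over a finite field is a nondegenerate quadratic form and is not of plus type,
-- in every characteristic.
import Mathlib
import Cfsg.Agent.Lib.Helper58.OElm.Defs
import Cfsg.Agent.Lib.Helper87.OParM.MinusQ
import Cfsg.Agent.Lib.Helper44.Char2Forms

set_option autoImplicit false
open scoped MatrixGroups
open Matrix

namespace Cfsg.Agent.Lib.Helper53.OElm

open Cfsg.Agent.Lib.Helper23.OHyp Cfsg.Agent.Lib.Helper64.OParM Cfsg.Agent.Lib.Helper58.OElm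

universe u

/-- A Mathlib quadratic form on `ι → F` with nondegenerate polar form is a nondegenerate
quadratic form in the sense of the Prelude. -/
theorem isNondeg_of_quadraticForm {F : Type u} [Field F] {ι : Type} [Fintype ι] [DecidableEq ι]
    (Qf : QuadraticForm F (ι → F)) (h : (QuadraticMap.polarBilin Qf).Nondegenerate) :
    Cfsg.Geo.IsNondegenerateQuadraticForm (⇑Qf) := by
  refine ⟨?_, ⟨?_, ?_, ?_, ?_⟩, ?_⟩
  · intro c v
    rw [QuadraticMap.map_smul, smul_eq_mul, pow_two]
  · intro x y v
    exact QuadraticMap.polar_add_left Qf x y v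
  · intro c x v
    rw [QuadraticMap.polar_smul_left, smul_eq_mul]
  · intro v x y
    exact QuadraticMap.polar_add_right Qf v x y
  · intro c v x
    rw [QuadraticMap.polar_smul_right, smul_eq_mul]
  · intro v hv
    have h1 : ∃ x, QuadraticMap.polar (⇑Qf) v x ≠ 0 := by
      by_contra hcon
      push Not at hcon
      exact hv (h.1 v hcon)
    obtain ⟨x, hx⟩ := h1
    exact ⟨⟨x, by rwa [QuadraticMap.polar_comm]⟩, ⟨x, hx⟩⟩

/-- [MINUSQE] -/
theorem pkgMinusQE : PkgMinusQE.{u} := by
  intro F _ _ k a b hab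
  refine ⟨?_, Cfsg.Agent.Lib.Helper87.OParM.minus_not_plus k a b hab⟩
  have h1 := isNondeg_of_quadraticForm (Cfsg.Agent.Lib.Helper14.minusQF k F a b)
    (Cfsg.Agent.Lib.Helper44.minusQF_nondegenerate_all k F a b hab)
  rw [Cfsg.Agent.Lib.Helper14.minusQF_coe k F a b] at h1
  exact h1

end Cfsg.Agent.Lib.Helper53.OElm
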